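import Mathlib.Data.List.Basic

/-! Generated data: the stabiliser of a trio. -/

set_option autoImplicit false

namespace CfsgLib.M24Orbits.Data

/-- The seven sextets refining the standard trio, indexed by nonzero vectors. -/
def trioSextets : List (List ℕ) := [
  [],
  [29,5250,346112,663616,5275680,10486528],
  [142,5137,90176,919552,2130464,13631744],
  [147,5132,272448,737280,7340544,8421664],
  [1031,4248,458816,550912,6291744,9470464],
  [1050,4229,149568,860160,3178752,12583456],
  [1161,4118,417792,591936,4227840,11534368],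
  [1172,4107,206848,802880,1049376,14712832]]

/-- Kernel elements moving the point `0`. -/
def trioKerMoves : List (List ℕ) := [
  [0,1,2,3,4,5,6,7,8,9,10,11,12,13,14,15,16,17,18,19,20,21,22,23],
  [1,0,10,12,7,5,18,4,8,9,2,13,3,11,19,15,17,16,6,14,20,21,22,23],
  [2,10,0,4,3,5,17,12,8,9,1,14,7,19,11,15,18,6,16,13,20,21,22,23],
  [3,12,4,0,2,5,19,10,8,9,7,16,1,17,18,15,11,13,14,6,20,21,22,23],
  [4,7,3,2,0,5,13,1,8,9,12,18,10,6,16,15,14,19,11,17,20,21,22,23],
  [7,4,12,10,1,5,11,0,8,9,3,6,2,18,17,15,19,14,13,16,20,21,22,23],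
  [10,2,1,7,12,5,16,3,8,9,0,19,4,14,13,15,6,18,17,11,20,21,22,23],
  [12,3,7,1,10,5,14,2,8,9,4,17,0,16,6,15,13,11,19,18,20,21,22,23]]

end CfsgLib.M24Orbits.Data
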